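import Cfsg.Agent.H1.Higman

/-! Alperin's theorem on automorphisms of prime order with few fixed points. -/

set_option autoImplicit false

namespace Cfsg.Agent.H1.Lie

open Subgroup

universe u

variable {G : Type u} [Group G]

theorem comm_lcs_le (m : ℕ) : ∀ (A : Subgroup G) [A.Normal],
    ⁅A, lcs G m⁆ ≤ (fun X => ⁅X, (⊤ : Subgroup G)⁆)^[m + 1] A := by
  have hn : ∀ (m : ℕ) (A : Subgroup G) [A.Normal], ((fun X => ⁅X, (⊤ : Subgroup G)⁆)^[m] A).Normal :=
    fun m => by
      induction m with
      | zero => exact fun _ h => h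
      | succ m ih => exact fun A _ => ih ⁅A, ⊤⁆
  induction m with
  | zero => exact fun _ _ => le_rfl
  | succ m ih =>
    intro A _
    haveI := hn (m + 2) A
    rw [commutator_comm]
    refine commutator_commutator_le_of_rotate ?_ ?_
    · rw [commutator_comm ⊤]; exact ih ⁅A, ⊤⁆
    · rw [Function.iterate_succ_apply']; exact commutator_mono (ih A) le_rfl

theorem hall_index [Finite G] {p : ℕ} [hp : Fact p.Prime] (hG : IsPGroup p G) {n : ℕ}
    {A N : Subgroup G} [A.Normal] (hN : N ≤ lcs G n) (h : ⁅A, N⁆ ≠ ⊥) :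
    p ^ (n + 1) ∣ ⁅A, N⁆.relIndex A := by
  let f := fun X : Subgroup G => ⁅X, (⊤ : Subgroup G)⁆
  have h1 : ∀ j, f^[j] A ≠ ⊥ → (f^[j] A).Normal ∧ f^[j] A ≤ A ∧ p ^ j ∣ (f^[j] A).relIndex A :=
    fun j => by
    induction j with
    | zero => exact fun _ => ⟨‹_›, le_rfl, one_dvd _⟩
    | succ j ih =>
      rw [Function.iterate_succ_apply']
      intro h
      have h2 : f^[j] A ≠ ⊥ := fun e => h (by rw [e]; exact commutator_bot_left _)
      obtain ⟨h3, h4, h5⟩ := ih h2
      have h6 : f (f^[j] A) < f^[j] A := commutator_lt_of_isPGroup (hG.to_subgroup _) (hG.to_subgroup _)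
        (by rw [normalizer_eq_top]) h2
      refine ⟨commutator_normal _ _, h6.le.trans h4, ?_⟩
      rw [← relIndex_mul_relIndex _ _ _ h6.le h4, pow_succ']
      refine mul_dvd_mul ?_ h5
      obtain ⟨k, hk⟩ := (hG.to_subgroup (f^[j] A)).index ((f (f^[j] A)).subgroupOf (f^[j] A))
      rw [relIndex, hk]
      refine dvd_pow_self _ fun e => h6.not_ge (relIndex_eq_one.mp ?_)
      rw [relIndex, hk, e, pow_zero]
  have h2 := (commutator_mono le_rfl hN).trans (comm_lcs_le n A)
  obtain ⟨-, h3, h4⟩ := h1 (n + 1) fun e => h (eq_bot_iff.mpr (h2.trans e.le))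
  rw [← relIndex_mul_relIndex _ _ _ h2 h3]
  exact h4.mul_left _

theorem card_le_ker_pow {V : Type*} [AddCommGroup V] [Finite V] (T : Module.End ℤ V) (m : ℕ) :
    Nat.card (LinearMap.ker (T ^ m)) ≤ Nat.card (LinearMap.ker T) ^ m := by
  induction m with
  | zero => simp [Module.End.one_eq_id]
  | succ m ih =>
    let f : LinearMap.ker (T ^ (m + 1)) →ₗ[ℤ] LinearMap.ker (T ^ m) :=
      T.restrict fun x hx => by simpa [pow_succ] using hx
    rw [pow_succ (Nat.card _), Submodule.card_eq_card_quotient_mul_card (LinearMap.ker f), mul_comm]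
    refine Nat.mul_le_mul (le_trans ?_ ih) ?_
    · exact Nat.card_le_card_of_injective _ (LinearMap.ker_eq_bot.mp (Submodule.ker_liftQ_eq_bot' _ f rfl))
    · exact Nat.card_le_card_of_injective (fun x => ⟨x.1.1, congrArg Subtype.val x.2⟩)
        fun a b h => Subtype.ext (Subtype.ext (congrArg Subtype.val h :))

/-- The number of fixed points. -/
noncomputable abbrev fx (α : MulAut G) : ℕ := Nat.card {g // α g = g}

theorem card_le_fx_pow {V : Type*} [CommGroup V] [Finite V] {p k : ℕ} (hp : p.Prime) {α : MulAut V}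
    (h : α ^ p = 1) (hk : ∀ v : V, v ^ p ^ k = 1) : Nat.card V ≤ fx α ^ (p * k) := by
  let a : Module.End ℤ (Additive V) := (MonoidHom.toAdditive α.toMonoidHom).toIntLinearMap
  have ha : ∀ n v, (a ^ n) v = Additive.ofMul ((α ^ n) v.toMul) := fun n v => by
    induction n with
    | zero => rfl
    | succ n ih => rw [pow_succ', pow_succ', Module.End.mul_apply, ih]; rfl
  have h1 : a ^ p = 1 := LinearMap.ext fun v => by rw [ha, h]; rfl
  obtain ⟨r, hr⟩ := (Commute.one_right (a - 1)).exists_add_pow_prime_eq hp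
  have h2 : (a - 1) ^ (p * k) = 0 := by
    rw [sub_add_cancel, h1, one_pow, add_assoc, add_comm 1, ← add_assoc, right_eq_add,
      add_eq_zero_iff_eq_neg, mul_assoc, mul_assoc, ← mul_neg] at hr
    rw [pow_mul, hr, (Nat.cast_commute p _).mul_pow, ← Nat.cast_pow]
    exact LinearMap.ext fun v => hk _
  have h3 := card_le_ker_pow (a - 1) (p * k)
  rw [h2, LinearMap.ker_zero, Nat.card_congr Submodule.topEquiv.toEquiv] at h3
  exact h3.trans_eq (congrArg (· ^ _)
    (Nat.card_congr (Equiv.subtypeEquivRight fun v => sub_eq_zero (a := a v))))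

theorem fx_le_of_inj [Finite G] {H : Type*} [Group H] {α : MulAut G} {β : MulAut H} (f : H →* G)
    (hf : Function.Injective f) (h : ∀ x, f (β x) = α (f x)) : fx β ≤ fx α :=
  Nat.card_le_card_of_injective (fun x => ⟨f x.1, by rw [← h, x.2]⟩)
    fun _ _ h => Subtype.ext (hf (congrArg Subtype.val h))

theorem fx_le_of_surj [Finite G] {H : Type*} [Group H] {α : MulAut G} {β : MulAut H} (f : G →* H)
    (hf : Function.Surjective f) (h : ∀ x, f (α x) = β (f x)) : fx β ≤ fx α := by
  let C := α.toMonoidHom.eqLocus (MonoidHom.id G)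
  let D := (β.toMonoidHom.eqLocus (MonoidHom.id H)).comap f
  have h1 : C ≤ D := fun x (hx : α x = x) => show β _ = _ by rw [← h, hx]; rfl
  have h2 : C.relIndex D ≤ Nat.card f.ker := by
    have h3 : ∀ x y : D, (QuotientGroup.leftRel (C.subgroupOf D)) x y ↔ α x * (x : G)⁻¹ = α y * (y : G)⁻¹ :=
      fun x y => by
        rw [QuotientGroup.leftRel_apply]
        show α ((x : G)⁻¹ * y) = (x : G)⁻¹ * y ↔ _
        rw [map_mul, map_inv, inv_mul_eq_iff_eq_mul, ← mul_assoc, ← mul_inv_eq_iff_eq_mul, eq_comm]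
    refine Nat.card_le_card_of_injective (fun q => Quotient.liftOn' q (fun x => ⟨α x * (x : G)⁻¹, ?_⟩)
      fun x y e => Subtype.ext ((h3 x y).mp e)) ?_
    · rw [MonoidHom.mem_ker, map_mul, h, show β (f x) = f x from x.2, map_inv, mul_inv_cancel]
    · rintro ⟨x⟩ ⟨y⟩ e
      exact Quotient.sound' ((h3 x y).mpr (congrArg Subtype.val e))
  have h3 := card_mul_relIndex h1
  rw [← card_mul_relIndex (ker_le_comap f _ : f.ker ≤ D), relIndex_ker,
    map_comap_eq_self_of_surjective hf] at h3
  refine Nat.le_of_mul_le_mul_left (h3.ge.trans ?_) Nat.card_pos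
  rw [mul_comm]; exact Nat.mul_le_mul_right _ h2

theorem fx_char [Finite G] (α : MulAut G) (H : Subgroup G) [H.Characteristic] :
    fx (MulAut.characteristic H α) ≤ fx α := fx_le_of_inj H.subtype H.subtype_injective fun _ => rfl

theorem fx_quot [Finite G] {A : Type*} [Group A] (φ : A →* MulAut G) (N : Subgroup G) [N.Normal]
    (hN : ∀ a, ∀ n ∈ N, φ a n ∈ N) (a : A) : fx (quotAut φ N hN a) ≤ fx (φ a) :=
  fx_le_of_surj (QuotientGroup.mk' N) (QuotientGroup.mk'_surjective N) fun x =>
    (quotAut_mk φ N hN a x).symm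

theorem char_inv (N : Subgroup G) [N.Characteristic] (a : MulAut G) : ∀ n ∈ N, a n ∈ N :=
  characteristic_iff_le_comap.mp inferInstance a

/-- The action on the factors of the lower central series. -/
def secAut (i : ℕ) : MulAut G →* MulAut (Sec G i) :=
  quotAut (MulAut.characteristic (lcs G i)) _ fun a _ hn => char_inv (lcs G (i + 1)) a _ hn

theorem relIndex_lcs_le [Finite G] {p c n : ℕ} [hp : Fact p.Prime] (hc : Bound.{u} p c)
    (hG : IsPGroup p G) {α : MulAut G} (h1 : α ^ p = 1) (h2 : fx α ≤ p ^ n) {i : ℕ} (hi : c ≤ i) :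
    (lcs G (i + 1)).relIndex (lcs G i) ≤ p ^ (n * (p * (n + c))) := by
  haveI : ∀ i, Finite (Sec G i) := fun i => Quotient.finite _
  have h3 : ∀ i, fx (secAut i α) ≤ p ^ n := fun i => (fx_quot _ _ _ _).trans ((fx_char α _).trans h2)
  refine (card_le_fx_pow (k := n + c) (α := secAut i α) hp.out (by rw [← map_pow, h1, map_one])
    fun v => ?_).trans (pow_mul p _ _ ▸ Nat.pow_le_pow_left (h3 i) _)
  obtain ⟨v, rfl⟩ := QuotientGroup.mk_surjective v
  rw [pow_add]
  refine (QuotientGroup.eq_one_iff (v ^ _)).mpr (pow_mem_lcs hc α h1 _ (fun i x hx h => ?_) hi v.2)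
  let C := (secAut i α).toMonoidHom.eqLocus (MonoidHom.id _)
  have h4 : IsPGroup p (Sec G i) := (hG.to_subgroup _).to_quotient _
  obtain ⟨k, hk⟩ := (h4.to_subgroup C).exists_card_eq
  have h5 : Nat.card C ∣ p ^ n :=
    hk ▸ pow_dvd_pow _ ((Nat.pow_le_pow_iff_right hp.out.one_lt).mp (hk.ge.trans (h3 i)))
  have h6 : (QuotientGroup.mk ⟨x, hx⟩ : Sec G i) ∈ C :=
    (QuotientGroup.eq (s := (lcs G (i + 1)).subgroupOf _) (a := ⟨x, hx⟩)
      (b := MulAut.characteristic (lcs G i) α ⟨x, hx⟩)).mpr h |>.symm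
  exact (QuotientGroup.eq_one_iff (N := (lcs G (i + 1)).subgroupOf _) ((⟨x, hx⟩ : lcs G i) ^ p ^ n)).mp
    (orderOf_dvd_iff_pow_eq_one.mp ((C.orderOf_dvd_natCard h6).trans h5))

theorem der_add {G' G'' : Type*} [Group G'] [Group G''] (f : G' →* G) (g : G →* G'')
    (h : g.ker ≤ f.range) {m n : ℕ} (hn : derivedSeries G'' n = ⊥) (hm : derivedSeries G' m = ⊥) :
    derivedSeries G (n + m) = ⊥ := by
  have : ∀ m, derivedSeries G (n + m) ≤ (derivedSeries G' m).map f := fun m => by
    induction m with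
    | zero => exact f.range_eq_map ▸ ((derivedSeries G n).map_eq_bot_iff.mp
        (le_bot_iff.mp ((map_derivedSeries_le_derivedSeries g n).trans hn.le))).trans h
    | succ m hm => exact commutator_le_map_commutator hm hm
  exact eq_bot_iff.mpr ((this m).trans (by rw [hm, Subgroup.map_bot]))

theorem der_of_card_le [Finite G] (hG : Group.IsSolvable G) {m : ℕ} (h : Nat.card G ≤ m) :
    derivedSeries G m = ⊥ := by
  have : ∀ k, derivedSeries G k ≠ ⊥ → Nat.card (derivedSeries G k) + k ≤ m := fun k => by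
    induction k with
    | zero => simpa using fun _ => h
    | succ k ih =>
      intro h
      have h1 : derivedSeries G k ≠ ⊥ := fun e => h (by rw [derivedSeries_succ, e, commutator_bot_left])
      have := card_lt_of_lt (IsSolvable.commutator_lt_of_ne_bot h1)
      have := ih h1
      rw [derivedSeries_succ]; omega
  by_contra h
  have := this m h
  have := Nat.card_pos (α := derivedSeries G m)
  omega

theorem der_pgroup [Finite G] {p c n : ℕ} [hp : Fact p.Prime] (hc : Bound.{u} p c)
    (hG : IsPGroup p G) {α : MulAut G} (h1 : α ^ p = 1) (h2 : fx α ≤ p ^ n) :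
    derivedSeries G (n * (p * (n + c)) + (c + 1)) = ⊥ := by
  set f := n * (p * (n + c))
  refine der_add (lcs G f).subtype (QuotientGroup.mk' (lcs G f)) (by simp) ?_ ?_
  · rw [eq_bot_iff, ← map_derivedSeries_eq (QuotientGroup.mk'_surjective _), map_le_iff_le_comap]
    simpa using Subgroup.derived_le_lower_central f
  refine eq_bot_iff.mpr ((Subgroup.derived_le_lower_central _).trans (eq_bot_iff.mp ?_))
  by_contra h
  have h3 := relIndex_lcs_le hc (hG.to_subgroup (lcs G f)) (α := MulAut.characteristic _ α)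
    (by rw [← map_pow, h1, map_one]) ((fx_char α _).trans h2) le_rfl
  rw [← relIndex_map_map_of_injective _ _ (lcs G f).subtype_injective, top_subtype_lowerCentralSeries,
    top_subtype_lowerCentralSeries] at h3
  rw [← map_subtype_inj, top_subtype_lowerCentralSeries, Subgroup.map_bot] at h
  have := (Nat.le_of_dvd (Nat.pos_of_ne_zero FiniteIndex.index_ne_zero) (hall_index hG le_rfl h)).trans h3
  exact (Nat.pow_lt_pow_right hp.out.one_lt f.lt_succ_self).not_ge this

theorem index_frattini_le [Finite G] {p n : ℕ} [hp : Fact p.Prime] (hG : IsPGroup p G)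
    {α : MulAut G} (h1 : α ^ p = 1) (h2 : fx α ≤ p ^ n) : (frattini G).index ≤ p ^ (p * n) := by
  letI : CommGroup (G ⧸ frattini G) := { (inferInstance : Group _) with
    mul_comm := haveI := hG.isNilpotent
      (Normal.quotient_commutative_iff_commutator_le.mpr commutator_le_frattini).is_comm.comm }
  have := card_le_fx_pow (k := 1) (α := quotAut (MonoidHom.id _) (frattini G) (char_inv _) α) hp.out
    (by rw [← map_pow, h1, map_one]) fun v => by
      obtain ⟨v, rfl⟩ := QuotientGroup.mk_surjective v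
      exact (QuotientGroup.eq_one_iff (v ^ _)).mpr (by simpa using pow_mem_frattini hG v)
  rw [mul_one] at this
  exact this.trans (mul_comm p n ▸ pow_mul p _ _ ▸ Nat.pow_le_pow_left ((fx_quot _ _ _ _).trans h2) _)

theorem der_core [Finite G] {p c n : ℕ} [hp : Fact p.Prime] (hc : Bound.{u} p c)
    (hG : Group.IsSolvable G) (h0 : pPrimeCore p G = ⊥) {α : MulAut G} (h1 : α ^ p = 1)
    (h2 : fx α ≤ p ^ n) :
    derivedSeries G ((p ^ (p * n)).factorial + (n * (p * (n + c)) + (c + 1))) = ⊥ := by
  have hP := isPGroup_pCore p G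
  set P := pCore p G
  have h3 : MulAut.characteristic P α ^ p = 1 := by rw [← map_pow, h1, map_one]
  have h4 := (fx_char α P).trans h2
  let φ := quotAut (MulAut.conjNormal (H := P)) (frattini P) fun a => char_inv _ _
  refine der_add P.subtype φ.rangeRestrict ?_ (der_of_card_le
    (solvable_of_surjective φ.rangeRestrict_surjective) ?_) (der_pgroup hc hP h3 h4)
  · rw [MonoidHom.ker_rangeRestrict, range_subtype]
    refine le_pCore (IsPGroup.of_card (Nat.eq_prime_pow_of_unique_prime_dvd Nat.card_pos.ne'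
      fun {q} hq h => ?_))
    haveI := Fact.mk hq
    obtain ⟨g, hg⟩ := exists_prime_orderOf_dvd_card' q h
    by_contra hne
    have h5 : orderOf (g : G) = q := by rw [orderOf_coe, hg]
    have h6 : zpowers (g : G) ≤ centralizer P := le_centralizer_of_commutator_le_frattini
      (by rw [normalizer_eq_top]; exact le_top) (by
        obtain ⟨k, hk⟩ := (hP.to_subgroup (frattini P)).exists_card_eq
        rw [Nat.card_zpowers, h5, hk]
        exact ((Nat.coprime_primes hq hp.out).mpr hne).pow_right _)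
      (commutator_le.mpr fun x hx y hy => by
        have h7 : φ y = 1 := (zpowers_le.mpr g.2 :) hy
        have h8 := quotAut_mk (MulAut.conjNormal (H := P)) (frattini P) (fun a => char_inv _ _) y ⟨x, hx⟩⁻¹
        rw [h7, MulAut.one_apply, QuotientGroup.eq] at h8
        exact ⟨_, h8, by simp [commutatorElement_def, mul_assoc]⟩)
    obtain ⟨k, hk⟩ := hP.exists_card_eq
    have := P.orderOf_dvd_natCard (centralizer_pCore_le_of_isSolvable hG h0 (h6 (mem_zpowers _)))
    rw [h5, hk] at this
    exact hne ((Nat.prime_dvd_prime_iff_eq hq hp.out).mp (hq.dvd_of_dvd_pow this))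
  · refine (card_le_card_group _).trans ((Nat.card_le_card_of_injective
      (fun a : MulAut _ => a.toEquiv) MulEquiv.toEquiv_injective).trans ?_)
    exact Nat.card_perm.trans_le (Nat.factorial_le (index_frattini_le hP h3 h4))

theorem alperin (p : ℕ) [hp : Fact p.Prime] (n : ℕ) : ∃ l : ℕ, ∀ (G : Type u) [Group G] [Finite G],
    Group.IsSolvable G → ∀ α : MulAut G, α ^ p = 1 → fx α = p ^ n → derivedSeries G l = ⊥ := by
  refine ⟨_, fun G _ _ hG α h1 h2 => der_add (pPrimeCore p G).subtype (QuotientGroup.mk' (pPrimeCore p G))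
    (by simp) (der_core (bound_higman p) inferInstance (pPrimeCore_quotient_pPrimeCore p)
      (α := quotAut (MonoidHom.id _) _ (char_inv _) α) (by rw [← map_pow, h1, map_one])
      ((fx_quot _ _ _ _).trans h2.le)) (eq_bot_iff.mpr ((Subgroup.derived_le_lower_central _).trans
      (lcs_eq_bot_of_fpf (bound_higman p) (α := MulAut.characteristic _ α)
        (by rw [← map_pow, h1, map_one]) fun g hg => ?_).le))⟩
  have h3 : orderOf (g : G) ∣ p ^ n := h2 ▸ (α.toMonoidHom.eqLocus (MonoidHom.id G)).orderOf_dvd_natCard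
    (x := g) (congrArg Subtype.val hg)
  rw [orderOf_coe] at h3
  exact orderOf_eq_one_iff.mp (Nat.eq_one_of_dvd_coprimes
    ((coprime_card_pPrimeCore p G).pow_right n) (orderOf_dvd_natCard g) h3)

end Cfsg.Agent.H1.Lie
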