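import Cfsg.Agent.H1.Base4
import Cfsg.Agent.BG.AppAB
import Cfsg.Agent.FT

/-! Bases of solvable linear groups, VI: groups of odd order (Gluck; base of size two). -/

set_option autoImplicit false
set_option linter.style.haveILetI false
set_option linter.unusedSectionVars false

namespace Cfsg.Agent.H1.Bs

open Subgroup Function
open scoped Pointwise commutatorElement IsMulCommutative

universe u

variable {G V Ω : Type u} [Group G] [Finite G] [CommGroup V] [Finite V] {ι κ : Type}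

theorem odd_mem (hG : Odd (Nat.card G)) {H : Subgroup G} {g : G} (h : g * g ∈ H) : g ∈ H := by
  obtain ⟨k, hk⟩ := hG
  have : g = ((g * g) ^ k)⁻¹ := by
    rw [← sq, ← pow_mul, eq_inv_iff_mul_eq_one, ← pow_succ', ← hk, pow_card_eq_one']
  rw [this]
  exact inv_mem (pow_mem h k)

theorem odd_fix (hG : Odd (Nat.card G)) (φ : G →* MulAut V) {g : G} {v : V} (h : φ g (φ g v) = v) :
    φ g v = v := (odd_mem hG (H := Cs φ ⊤ v) ⟨mem_top _, by rw [ap_mul, h]⟩).2

theorem oddMultL [Nontrivial V] (φ : G →* MulAut V) (hG : Odd (Nat.card G)) (x : Fin 2 → V)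
    (hx : RegL φ x) : ∃ d : Fin 2 → Fin 2 → V, (∀ s, RegL φ (d s)) ∧
      ∀ g s t, (∀ j, φ g (d s j) = d t j) → s = t := by
  obtain ⟨y, h1, h2⟩ : ∃ y : Fin 2 → V, RegL φ y ∧ ∀ g, ¬ ∀ j, φ g (x j) = y j := by
    by_cases h : x 0 = x 1
    · by_cases h0 : x 0 = 1
      · obtain ⟨w, hw⟩ := exists_ne (1 : V)
        refine ⟨fun _ => w, fun g _ => hx g fun j => ?_, fun g hg => hw ?_⟩
        · fin_cases j
          · exact (congrArg _ h0).trans ((map_one _).trans h0.symm)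
          · exact (congrArg _ (h.symm.trans h0)).trans ((map_one _).trans (h.symm.trans h0).symm)
        · exact (hg 0).symm.trans ((congrArg _ h0).trans (map_one _))
      · refine ⟨![x 0, 1], fun g hg => hx g fun j => ?_, fun g hg => h0 ?_⟩
        · fin_cases j
          · exact hg 0
          · exact (congrArg _ h.symm).trans ((hg 0).trans h)
        · exact h.trans ((φ g).map_eq_one_iff.1 (hg 1))
    · refine ⟨![x 1, x 0], fun g hg => hx g fun j => ?_, fun g hg => h ?_⟩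
      · fin_cases j
        exacts [hg 1, hg 0]
      · exact (odd_fix hG φ ((congrArg _ (hg 0)).trans (hg 1))).symm.trans (hg 0)
  refine ⟨![x, y], fun s => by fin_cases s; exacts [hx, h1], fun g s t h => ?_⟩
  fin_cases s <;> fin_cases t
  exacts [rfl, absurd h (h2 g), (h2 g⁻¹ fun j => (congrArg _ (h j).symm).trans (ap_inv φ g _)).elim, rfl]

theorem oddMultP [Nonempty Ω] (ψ : G →* Equiv.Perm Ω) (hG : Odd (Nat.card G))
    (c : Ω → Fin 2) (hc : RegP ψ c) : ∃ d : Fin 2 → Ω → Fin 2, (∀ s, RegP ψ (d s)) ∧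
      ∀ g s t, (∀ ω, d s (ψ g ω) = d t ω) → s = t := by
  refine ⟨fun s ω => s + c ω, fun s g hg => hc g fun ω => add_left_cancel (hg ω), fun g s t h => ?_⟩
  have h1 := hc (g * g) fun ω => by
    have : ∀ s t a b d : Fin 2, s + b = t + a → s + d = t + b → d = a := by decide
    rw [pm_mul]
    exact this _ _ _ _ _ (h ω) (h (ψ g ω))
  have ω := Classical.arbitrary Ω
  have := h ω
  rw [mem_stab.1 (odd_mem hG (mem_stab.2 (h1 ω)))] at this
  exact add_right_cancel this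

theorem oddReg' (hG : Odd (Nat.card G)) (ψ : G →* Equiv.Perm Ω) (U : Subgroup G) [hU : U.Normal]
    [IsMulCommutative U] (ω₀ : Ω) (a b : U) (hab : a = 1 ↔ b = 1) (htr : ∀ ω, ∃ u ∈ U, ψ u ω₀ = ω)
    (hr : ∀ u ∈ U, ψ u ω₀ = ω₀ → u = 1)
    (h : ∀ h, ψ h ω₀ = ω₀ → h * a * h⁻¹ = a → h * b * h⁻¹ = b → ∀ ω, ψ h ω = ω) :
    ∃ c : Ω → Fin 2, RegP ψ c := by
  classical
  have hinv : ∀ t : U, t⁻¹ = t → t = 1 := fun t ht => Subtype.ext (mem_bot.1 (odd_mem hG (H := ⊥)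
    (mem_bot.2 (congrArg Subtype.val (inv_eq_iff_mul_eq_one.1 ht)))))
  let T : Finset U := {a, a⁻¹, b, b⁻¹}
  have hT : ∀ t, t ∈ T ↔ (t = a ∨ t = a⁻¹) ∨ (t = b ∨ t = b⁻¹) := fun t => by simp [T, or_assoc]
  let α : G →* MulAut U := MulAut.conjNormal
  refine ⟨fun ω => if ∃ t ∈ T, ψ t ω₀ = ω then 1 else 0, fun g hg => ?_⟩
  obtain ⟨u, hu, h1⟩ := htr (ψ g ω₀)
  have h2 : ∀ t ∈ T, α g t * ⟨u, hu⟩ ∈ T := fun t ht => by
    have := hg (ψ t ω₀)
    beta_reduce at this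
    rw [if_pos (⟨t, ht, rfl⟩ : ∃ s ∈ T, ψ s ω₀ = ψ t ω₀)] at this
    obtain ⟨s, hs, e⟩ : ∃ s ∈ T, ψ s ω₀ = ψ g (ψ t ω₀) := by
      by_contra hn
      rw [if_neg hn] at this
      exact absurd this (by decide)
    have := hr _ (s⁻¹ * (α g t * ⟨u, hu⟩)).2 (by
      change ψ ((s : G)⁻¹ * (g * t * g⁻¹ * u)) ω₀ = ω₀
      rw [pm_mul, pm_mul, h1, pm_mul, pm_inv, pm_mul, ← e, pm_inv])
    rwa [← inv_mul_eq_one.1 (Subtype.ext this)]
  have h3 : ∏ t ∈ T, t = 1 := Finset.prod_involution (fun t _ => t⁻¹) (fun t _ => mul_inv_cancel t)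
    (fun t _ h h' => h (hinv t h')) (fun t ht => by
      rw [hT] at ht ⊢
      rcases ht with (rfl | rfl) | rfl | rfl <;> simp) fun t _ => inv_inv t
  have h4 : (⟨u, hu⟩ : U) ^ T.card = 1 := by
    have hi : ∀ a₁ a₂ (_ : a₁ ∈ T) (_ : a₂ ∈ T), α g a₁ * ⟨u, hu⟩ = α g a₂ * ⟨u, hu⟩ → a₁ = a₂ :=
      fun _ _ _ _ h => (α g).injective (mul_right_cancel h)
    have := Finset.prod_bij (f := fun t => α g t * ⟨u, hu⟩) (g := fun t => t) (fun t _ => α g t * ⟨u, hu⟩)
      h2 (fun _ _ _ _ => hi _ _ ‹_› ‹_›) (fun X hX => by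
        obtain ⟨Y, hY, e⟩ := Finset.surj_on_of_inj_on_of_card_le (fun t _ => α g t * ⟨u, hu⟩) h2 hi
          le_rfl X hX
        exact ⟨Y, hY, e.symm⟩) fun _ _ => rfl
    rwa [Finset.prod_mul_distrib, ← map_prod, h3, map_one, one_mul, Finset.prod_const] at this
  have h5 : T.card ∣ 4 := by
    by_cases ha : a = 1
    · simp [T, ha, hab.1 ha]
    have ha' : a ≠ a⁻¹ := fun h => ha (hinv a h.symm)
    have hb' : b ≠ b⁻¹ := fun h => ha (hab.2 (hinv b h.symm))
    by_cases h6 : b = a ∨ b = a⁻¹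
    · have : T = {a, a⁻¹} := by
        ext t
        rcases h6 with rfl | rfl <;> simp [T, or_comm]
      rw [this, Finset.card_pair ha']
      norm_num
    · push Not at h6
      rw [Finset.card_insert_of_notMem, Finset.card_insert_of_notMem, Finset.card_pair hb']
      · simp [h6.1.symm, h6.2.symm]
      · simpa [ha', h6.1.symm] using fun h : a = b⁻¹ => h6.2 (by rw [h, inv_inv])
  obtain rfl : u = 1 := by
    obtain ⟨k, hk⟩ := h5
    have : (⟨u, hu⟩ : U) ^ 4 = 1 := by rw [hk, pow_mul, h4, one_pow]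
    have : u * u * (u * u) = 1 := by
      simpa [pow_succ, mul_assoc] using congrArg Subtype.val this
    exact mem_bot.1 (odd_mem hG (odd_mem hG (mem_bot.2 this)))
  have h6 : ∀ t ∈ T, α g t ∈ T := fun t ht => mul_one (α g t) ▸ h2 t ht
  have h7 : ∀ (k : G) (s c : U), (s = c ∨ s = c⁻¹) → (α k s = c ∨ α k s = c⁻¹) → α k s = s := by
    intro k s c h1 h2
    have : α k s = s ∨ α k s = s⁻¹ := by
      rcases h1 with rfl | rfl
      · exact h2
      · rw [inv_inv]; exact h2.symm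
    refine this.elim id fun h => odd_fix hG α ?_
    rw [h, map_inv, h, inv_inv]
  have h8 : ∀ t ∈ T, α g t = t := fun t ht => by
    have e1 := (hT _).1 (h6 t ht)
    have e2 := (hT _).1 (h6 _ (h6 t ht))
    rcases (hT _).1 ht with e0 | e0 <;> rcases e1 with e1 | e1
    · exact h7 _ _ _ e0 e1
    · rcases e2 with e2 | e2
      · exact odd_fix hG α ((ap_mul α g g t).symm.trans (h7 _ _ _ e0 (by rwa [ap_mul])))
      · exact (α g).injective (h7 _ _ _ e1 e2)
    · rcases e2 with e2 | e2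
      · exact (α g).injective (h7 _ _ _ e1 e2)
      · exact odd_fix hG α ((ap_mul α g g t).symm.trans (h7 _ _ _ e0 (by rwa [ap_mul])))
    · exact h7 _ _ _ e0 e1
  exact h g (h1.symm.trans (pm_one ψ ω₀)) (congrArg Subtype.val (h8 a (by simp [T])))
    (congrArg Subtype.val (h8 b (by simp [T])))

theorem oddReg (ψ : G →* Equiv.Perm Ω) (U : Subgroup G) [hU : U.Normal]
    [IsMulCommutative U] (ω₀ : Ω) (x : Fin 2 → G) (hG : Odd (Nat.card G)) (hx : ∀ j, x j ∈ U)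
    (htr : ∀ ω, ∃ u ∈ U, ψ u ω₀ = ω) (hr : ∀ u ∈ U, ψ u ω₀ = ω₀ → u = 1)
    (h : ∀ h, ψ h ω₀ = ω₀ → (∀ j, h * x j * h⁻¹ = x j) → ∀ ω, ψ h ω = ω) :
    ∃ c : Ω → Fin 2, RegP ψ c := by
  by_cases h0 : x 0 = 1
  · refine oddReg' hG ψ U ω₀ ⟨_, hx 1⟩ ⟨_, hx 1⟩ Iff.rfl htr hr fun k h1 h2 _ => h k h1 fun j => ?_
    fin_cases j
    · change k * x 0 * k⁻¹ = x 0
      rw [h0, mul_one, mul_inv_cancel]
    · exact h2
  by_cases h1 : x 1 = 1
  · refine oddReg' hG ψ U ω₀ ⟨_, hx 0⟩ ⟨_, hx 0⟩ Iff.rfl htr hr fun k h1' h2 _ => h k h1' fun j => ?_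
    fin_cases j
    · exact h2
    · change k * x 1 * k⁻¹ = x 1
      rw [h1, mul_one, mul_inv_cancel]
  · refine oddReg' hG ψ U ω₀ ⟨_, hx 0⟩ ⟨_, hx 1⟩ (iff_of_false (fun h => h0 (congrArg Subtype.val h))
      fun h => h1 (congrArg Subtype.val h)) htr hr fun k h1' h2 h3 => h k h1' fun j => ?_
    fin_cases j
    exacts [h2, h3]

theorem mem_fitting_of_quadratic (hG : Odd (Nat.card G)) {U E : Subgroup G} [U.Normal] [E.Normal]
    (hE : Group.IsNilpotent E) (hc : ∀ g, (∀ e ∈ E, e * g = g * e) → g ∈ U) {h : G}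
    (hr : (orderOf h).Prime) (hU : h ∈ centralizer (U : Set G)) (hq : ⁅⁅E, zpowers h⁆, zpowers h⁆ = ⊥) :
    h ∈ fittingSubgroup G := by
  have := Fact.mk hr
  let P := (pCore (orderOf h) E).map E.subtype
  let Q := (pPrimeCore (orderOf h) E).map E.subtype
  have hPQ : E ≤ P ⊔ Q := by
    rw [← Subgroup.map_sup, top_le_iff.1 ((fittingSubgroup_eq_top_iff.2 hE).ge.trans
      (fittingSubgroup_le_pCore_sup_pPrimeCore _)), ← MonoidHom.range_eq_map, range_subtype]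
  have hq' : ∀ X ≤ E, ⁅⁅X, zpowers h⁆, zpowers h⁆ = ⊥ := fun X hX =>
    eq_bot_iff.2 ((commutator_mono (commutator_mono hX le_rfl) le_rfl).trans hq.le)
  have h1 := BG.odd_stable (L := ⊤) (P := P) (by rwa [card_top]) (isPGroup_map_pCore _ E)
    le_normalizer_of_normal le_top (hq' P (map_subtype_le _))
  obtain ⟨h2, h3⟩ := H21.coreMod_spec (π := {orderOf h}) (N := centralizer (P : Set G)) (H := ⊤)
    le_normalizer_of_normal
  have := H21.normalIn_top_iff.1 h2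
  obtain ⟨n, hn⟩ := (H21.PiNat.singleton_iff hr FiniteIndex.index_ne_zero).1 h3
  have h4 : zpowers h ≤ centralizer (Q : Set G) := by
    have := hq' Q (map_subtype_le _)
    rw [H21.coprime_commg_commg le_normalizer_of_normal (by
      rw [Nat.card_zpowers]; exact coprime_card_map_pPrimeCore _ E)] at this
    exact le_centralizer_iff.1 (commutator_eq_bot_iff_le_centralizer.1 this)
  refine le_fittingSubgroup (N := H21.coreMod {orderOf h} (centralizer (P : Set G)) ⊤ ⊓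
    centralizer (Q : Set G) ⊓ centralizer (U : Set G)) (isNilpotent_of_map_mk'_of_le_centralizer (Z := U)
    (le_centralizer_iff.1 inf_le_right) (IsPGroup.isNilpotent (p := orderOf h) ?_))
    ⟨⟨h1 (mem_zpowers h), h4 (mem_zpowers h)⟩, hU⟩
  rintro ⟨_, z, hz, rfl⟩
  refine ⟨n, Subtype.ext ?_⟩
  change QuotientGroup.mk' U z ^ _ = 1
  rw [← map_pow]
  refine (QuotientGroup.eq_one_iff _).2 (hc _ fun e he => ?_)
  have : P ⊔ Q ≤ centralizer {z ^ orderOf h ^ n} := sup_le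
    (fun a ha _ e => e ▸ ((hn ▸ pow_relIndex_mem _ hz.1.1 : _ ∈ centralizer (P : Set G)) a ha).symm)
    (fun a ha _ e => e ▸ ((pow_mem hz.1.2 _ : _ ∈ centralizer (Q : Set G)) a ha).symm)
  exact (this (hPQ he) _ rfl).symm

namespace Str

variable {φ : G →* MulAut V} {U E : Subgroup G} {x : V} (S : Str φ U E) (hx : Mx φ E x)
include S hx

theorem odd1 {h : G} (hh : φ h x = x) (h2 : ∀ f ∈ E, Wx φ E (φ h (φ f x)) = Wx φ E (φ f x))
    (h3 : ∀ y ∈ Yx φ E x, φ h (φ y x) = φ y x) : Cs φ E x ⊔ U ≤ centralizer {h} := by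
  have := S.nE
  have hU : ∀ u ∈ U, h * u * h⁻¹ = u := fun u hu => (inv_mul_eq_one.1 (S.fpf _
    (mul_mem (inv_mem hu) (S.nU.conj_mem u hu h)) x hx.1 (S.delta_mem hh (S.le hu)
      (h3 u ⟨S.le hu, fun b hb => (S.cen u hu b hb.1).symm⟩)).2)).symm
  refine sup_le (fun b hb _ e => e ▸ ?_) fun u hu _ e => e ▸ mul_inv_eq_iff_eq_mul.1 (hU u hu)
  have hδ := S.delta_mem hh hb.1 (h3 b (S.B_le hx hb))
  refine mul_inv_eq_iff_eq_mul.1 (inv_mul_eq_one.1 (S.fpf _ (S.cent _ fun f hf => ?_) x hx.1 hδ.2)).symm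
  have e1 : Cs φ E (φ f x) = Cs φ E (φ h (φ f x)) :=
    (hx.ap f).eq (h2 f hf ▸ self_mem_Wx) ((hx.ap f).ap h).1
  have m1 : f * b * f⁻¹ ∈ Cs φ E (φ f x) := by rw [Cs_ap]; exact mem_map_of_mem _ hb
  have m2 : h * (f * b * f⁻¹) * h⁻¹ ∈ Cs φ E (φ f x) := by
    rw [e1, Cs_ap h]; exact mem_map_of_mem _ m1
  have m3 : b⁻¹ * (h * b * h⁻¹) ∈ Cs φ E (φ f x) := by
    convert mul_mem (inv_mem m1) m2 using 1
    have := hU _ (S.comm' hf hb.1)
    rw [show h * (f * b * f⁻¹) * h⁻¹ = h * ⁅f, b⁆ * h⁻¹ * (h * b * h⁻¹) by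
      rw [commutatorElement_def]; group, this, commutatorElement_def]
    group
  refine (Commute.inv_inv_iff.1 (S.commute hx (inv_mem hδ.1) (inv_mem hf) ?_)).symm
  rw [commutatorElement_def, inv_inv, inv_inv, ap_mul, ap_mul, m3.2, ap_mul, ap_inv, fix_inv hδ.2]

theorem odd2 {h : G} (hh : φ h x = x) (hc : 2 * {f | f ∈ E ∧ φ h (φ f x) ≠ φ f x}.ncard ≤ Nat.card E)
    (hE : Odd (Nat.card E)) {H : Subgroup G} (hH : ∀ f ∈ E, f⁻¹ * (h * f * h⁻¹) ∈ Cs φ E x → f ∈ H) :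
    E ≤ H := by
  refine le_of_half (S := E \ {f | f ∈ E ∧ φ h (φ f x) ≠ φ f x}) Set.sdiff_subset (fun f hf =>
    hH f hf.1 (S.delta_mem hh hf.1 (not_not.1 fun h' => hf.2 ⟨hf.1, h'⟩))) ?_
  have := Set.le_ncard_sdiff {f | f ∈ E ∧ φ h (φ f x) ≠ φ f x} (E : Set G)
  have : (E : Set G).ncard = Nat.card E := (Nat.card_coe_set_eq _).symm
  obtain ⟨k, hk⟩ := hE
  omega

theorem odd3 {h : G} (hh : φ h x = x) (hc : 2 * {f | f ∈ E ∧ φ h (φ f x) ≠ φ f x}.ncard ≤ Nat.card E)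
    (hE : Odd (Nat.card E)) {f : G} (hf : f ∈ E) : ⁅f, h⁆ ∈ Cs φ E x ⊔ U := by
  have hn : ∀ g ∈ E, ∀ z ∈ Cs φ E x ⊔ U, g * z * g⁻¹ ∈ Cs φ E x ⊔ U := fun g hg z hz => by
    have := mul_mem (mem_sup_right (S.comm' hg (sup_le (fun _ h => h.1) S.le hz))) hz
    rwa [commutatorElement_def, inv_mul_cancel_right] at this
  let D : Subgroup G :=
    { carrier := {f | f ∈ E ∧ f⁻¹ * (h * f * h⁻¹) ∈ Cs φ E x ⊔ U}
      one_mem' := ⟨one_mem _, by simpa using one_mem _⟩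
      mul_mem' := fun {a b} ha hb => ⟨mul_mem ha.1 hb.1, by
        convert mul_mem (hn _ (inv_mem hb.1) _ ha.2) hb.2 using 1; group⟩
      inv_mem' := fun {a} ha => ⟨inv_mem ha.1, by
        convert hn _ ha.1 _ (inv_mem ha.2) using 1; group⟩ }
  have := (S.odd2 hx hh hc hE (H := D) (fun f hf h => ⟨hf, mem_sup_left h⟩) (inv_mem hf)).2
  rwa [commutatorElement_def, mul_assoc, mul_assoc, ← mul_assoc h, ← inv_inv f, inv_inv f⁻¹]

end Str

theorem cyc_range [Nontrivial V] (ρ : G →* MulAut V) (hs : Semireg ρ.range.subtype) (ho : Odd (Nat.card G))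
    (hn : Group.IsNilpotent G) : IsCyclic ρ.range := by
  have := nilpotent_of_surjective _ ρ.rangeRestrict_surjective
  have : IsZGroup ρ.range := ⟨fun p hp P => by
    have := Fact.mk hp
    refine ((hs.comp _ (subtype_injective _)).isCyclic_or_quaternion P.isPGroup').resolve_right ?_
    rintro ⟨-, n, -, ⟨e⟩⟩
    have := (ho.of_dvd_nat (card_dvd_of_surjective _ ρ.rangeRestrict_surjective)).of_dvd_nat
      (P : Subgroup ρ.range).card_subgroup_dvd_card
    rw [Nat.card_congr e.toEquiv, Nat.card_eq_fintype_card, QuaternionGroup.card] at this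
    exact absurd this (by simp [parity_simps])⟩
  infer_instance

theorem oddPrim [Nontrivial V] (φ : G →* MulAut V) (hG : Odd (Nat.card G)) (hφ : Injective φ)
    (hI : Irr φ) (hc : ∀ N : Subgroup G, N.Normal → IsMulCommutative N → IsCyclic N)
    (hP : PP.{u} (fun G _ => Odd (Nat.card G)) (Fin 2) (Nat.card V)) : ∃ x : Fin 2 → V, RegL φ x := by
  obtain ⟨U, E, S⟩ := exists_str (FT.solvable_of_odd hG) hφ hI hc
  obtain ⟨x, hx⟩ := exists_mx φ E
  have hodd : ∀ H : Subgroup G, Odd (Nat.card H) := fun H => hG.of_dvd_nat H.card_subgroup_dvd_card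
  have hnil : ∀ H ≤ E, Group.IsNilpotent H := fun H hH => by
    have := isNilpotent_fittingSubgroup G
    exact nilpotent_of_mulEquiv (subgroupOfEquivOfLe (hH.trans S.leF))
  have : Nontrivial (Wx φ E x) := ⟨⟨x, self_mem_Wx⟩, 1, fun h => hx.1 (congrArg Subtype.val h)⟩
  obtain ⟨a, ha, hY⟩ := Str.gen1 (le_refl (Yx φ E x))
    (cyc_range _ (Str.semireg hx (le_refl (Yx φ E x))) (hodd _) (hnil _ inf_le_left))
  obtain ⟨y, hy⟩ := S.assemble hx hP (hodd _) (![![1], ![x]] : Fin 2 → Fin 1 → V) 0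
    (fun s j => by fin_cases s <;> fin_cases j <;> simp [self_mem_Wx])
    (fun g s s' h => by
      have := h 0
      fin_cases s <;> fin_cases s' <;> simp [hx.1, hx.1.symm] at this ⊢)
    (fun s hs => by fin_cases s; exacts [absurd rfl hs, ⟨0, rfl⟩]) ![a]
    (fun j => by fin_cases j; exact ha) (by simpa [← zpowers_eq_closure] using hY)
  refine ⟨![x, y 0], fun g hg v => ?_⟩
  by_contra hne
  obtain ⟨r, hr, hd⟩ := Nat.exists_prime_and_dvd (n := orderOf g) fun h => hne (by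
    rw [orderOf_eq_one_iff.1 h, ap_one])
  have ho := orderOf_pow_orderOf_div (orderOf_pos g).ne' hd
  have hA : zpowers (g ^ (orderOf g / r)) ≤ Cs φ ⊤ x ⊓ Cs φ ⊤ (y 0) :=
    zpowers_le.2 (pow_mem (show g ∈ Cs φ ⊤ x ⊓ Cs φ ⊤ (y 0) from ⟨⟨mem_top _, hg 0⟩, mem_top _, hg 1⟩) _)
  generalize g ^ (orderOf g / r) = h at ho hA
  have hk := fun k (hk : k ∈ zpowers h) =>
    hy k (hA hk).1.2 fun j => by fin_cases j; exact (hA hk).2.2
  have h1 : ∀ k ∈ zpowers h, Cs φ E x ⊔ U ≤ centralizer {k} := fun k hk' =>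
    S.odd1 hx (hA hk').1.2 (hk k hk').2.1 (hk k hk').2.2
  have := S.nU
  have := S.nE
  have hh := (hA (mem_zpowers h)).1.2
  have hF := mem_fitting_of_quadratic hG (hnil E le_rfl) S.cent (ho ▸ hr)
    (fun u hu => (h1 h (mem_zpowers h) (mem_sup_right hu) h rfl).symm)
    (commutator_eq_bot_iff_le_centralizer.2 (commutator_le.2 fun f hf k hk' l hl =>
      h1 l hl (S.odd3 hx (hA hk').1.2 (hk k hk').1 (hodd E) hf) l rfl))
  have h2 := S.odd2 hx hh (hk h (mem_zpowers h)).1 (hodd E) (H := centralizer {h}) fun f hf h3 _ e => e ▸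
    mul_inv_eq_iff_eq_mul.1 (inv_mul_eq_one.1 (S.fpf _ (by
      convert S.comm _ (inv_mem hf) h hF using 1
      rw [commutatorElement_def]; group) x hx.1 h3.2)).symm
  rw [S.fpf h (S.cent h fun e he => (h2 he h rfl).symm) x hx.1 hh, orderOf_one] at ho
  exact hr.one_lt.ne ho

/-- groups of odd order -/
def oddFam : Fam.{u} (Fin 2) (Fin 2) where
  Cl G _ := Odd (Nat.card G)
  inj f hf h := h.of_dvd_nat (card_dvd_of_injective f hf)
  surj f hf h := h.of_dvd_nat (card_dvd_of_surjective f hf)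
  sol h := FT.solvable_of_odd h
  multL := oddMultL
  multP := oddMultP
  reg := oddReg
  prim := oddPrim

/-- Gluck: a permutation group of odd order has a regular orbit on the power set -/
theorem gluck [Finite Ω] (ψ : G →* Equiv.Perm Ω) (hG : Odd (Nat.card G)) :
    ∃ c : Ω → Fin 2, RegP ψ c := (oddFam.all _).2 G Ω ψ hG (Nat.lt_succ_self _)

end Cfsg.Agent.H1.Bs
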