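import Cfsg.Agent.H1.FrobCompl

/-!
Fixed point free representations via functions on the group; free actions of `Q₈`.
-/

set_option autoImplicit false

namespace Cfsg.Agent.H1

open Subgroup Finset

variable {G : Type*} [Group G]

theorem FreeRep.exists_fun [Finite G] (h : FreeRep G) : ∃ f : G → ℚ, f 1 ≠ 0 ∧
    ∀ x g, g ≠ 1 → ∑ k ∈ range (orderOf g), f (x * g ^ k) = 0 := by
  obtain ⟨n, ρ, hn, h⟩ := h
  obtain ⟨μ, hμ⟩ := Module.Projective.exists_dual_ne_zero ℚ (one_ne_zero (α := ℂ))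
  refine ⟨fun x => μ (ρ x (fun _ => 1) ⟨0, hn⟩), by simpa using hμ, fun x g hg => ?_⟩
  have h1 : ∑ k ∈ range (orderOf g), ρ (g ^ k) (fun _ => 1) = 0 := h g hg _ (by
    have := sum_range_succ' (fun k => ρ (g ^ k) (fun _ => 1)) (orderOf g)
    rw [sum_range_succ, pow_orderOf_eq_one, pow_zero, add_left_inj] at this
    rw [map_sum, this]
    exact sum_congr rfl fun k _ => by rw [pow_succ', map_mul]; rfl)
  simp only [map_mul, Module.End.mul_apply]
  rw [← map_sum, ← Finset.sum_apply, ← map_sum, h1]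
  simp

theorem exists_rep_of_fun [Finite G] {F : Type*} [Field F] [CharZero F] {f : G → F} (h0 : f ≠ 0)
    (h : ∀ x g, (orderOf g).Prime → ∑ k ∈ range (orderOf g), f (x * g ^ k) = 0) :
    ∃ (n : ℕ) (ρ : G →* GL (Fin n) F), 0 < n ∧ (∀ W : Submodule F (Fin n → F),
      (∀ g : G, ∀ w ∈ W, (ρ g : Matrix (Fin n) (Fin n) F).mulVec w ∈ W) → W = ⊥ ∨ W = ⊤) ∧
      ∀ g : G, g ≠ 1 → ∀ v : Fin n → F, (ρ g : Matrix (Fin n) (Fin n) F).mulVec v = v → v = 0 := by
  let σ : Representation F G (G → F) :=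
    { toFun := fun g => LinearMap.funLeft F F (· * g)
      map_one' := by ext; simp
      map_mul' := fun a b => by ext; simp [mul_assoc] }
  have hσ : ∀ g u x, σ g u x = u (x * g) := fun _ _ _ => rfl
  let V : Submodule F (G → F) :=
    { carrier := {u | ∀ x g, (orderOf g).Prime → ∑ k ∈ range (orderOf g), u (x * g ^ k) = 0}
      add_mem' := fun ha hb x g hg => by simp [sum_add_distrib, ha x g hg, hb x g hg]
      zero_mem' := by simp
      smul_mem' := fun c u hu x g hg => by simp [← mul_sum, hu x g hg] }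
  obtain ⟨W, ⟨h1, h2, h3⟩, hW⟩ := exists_minimal_of_wellFoundedLT
    (fun W : Submodule F (G → F) => W ≠ ⊥ ∧ W ≤ V ∧ ∀ g, W ≤ W.comap (σ g))
    ⟨V, fun e => h0 ((Submodule.eq_bot_iff V).mp e f h), le_rfl, fun g u hu x a ha => by
      have h1 : orderOf (g⁻¹ * a * g⁻¹⁻¹) = orderOf a := (MulAut.conj g⁻¹).orderOf_eq a
      have := hu (x * g) _ (h1 ▸ ha)
      simp only [h1, conj_pow] at this
      simpa [hσ, mul_assoc] using this⟩
  let b := Module.finBasis F W
  let τ := σ.subrepresentation W h3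
  let ρ : G →* GL (Fin (Module.finrank F W)) F :=
    ((LinearMap.toMatrixAlgEquiv b : Module.End F W →* _).comp τ).toHomUnits
  have hρ : ∀ g w, (ρ g : Matrix _ _ F).mulVec (b.equivFun w) = b.equivFun (τ g w) := fun g w =>
    LinearMap.toMatrix_mulVec_repr b b (τ g) w
  refine ⟨_, ρ, Nat.pos_of_ne_zero fun e => h1 (Submodule.finrank_eq_zero.mp e), fun U hU => ?_,
    fun g hg v hv => ?_⟩
  · refine or_iff_not_imp_left.mpr fun h4 => eq_top_iff.mpr fun v _ => ?_
    obtain ⟨v, rfl⟩ := b.equivFun.surjective v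
    suffices h5 : _ by
      obtain ⟨w, h5, h6⟩ := hW (y := (U.comap b.equivFun.toLinearMap).map W.subtype) h5
        (W.map_subtype_le _) v.2
      exact (Subtype.ext h6 : w = v) ▸ h5
    refine ⟨fun e => h4 ?_, (W.map_subtype_le _).trans h2, ?_⟩
    · refine (Submodule.eq_bot_iff U).mpr fun x hx => ?_
      obtain ⟨x, rfl⟩ := b.equivFun.surjective x
      rw [show x = 0 from Subtype.ext ((Submodule.eq_bot_iff _).mp e _ ⟨x, hx, rfl⟩), map_zero]
    · rintro g _ ⟨w, hw, rfl⟩
      exact ⟨τ g w, show b.equivFun (τ g w) ∈ U from hρ g w ▸ hU g _ hw, rfl⟩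
  · obtain ⟨w, rfl⟩ := b.equivFun.surjective v
    rw [hρ, b.equivFun.injective.eq_iff] at hv
    obtain ⟨a, ha, hp⟩ := exists_prime_orderOf_mem (zpowers_ne_bot.mpr hg)
    obtain ⟨m, rfl⟩ := mem_powers_iff_mem_zpowers.mpr ha
    have h4 : ∀ k x, w.1 (x * g ^ k) = w.1 x := fun k => by
      induction k with
      | zero => simp
      | succ k ih => intro x; rw [pow_succ', ← mul_assoc, ih]; exact congrFun (congrArg Subtype.val hv) x
    rw [map_eq_zero_iff _ b.equivFun.injective]
    ext x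
    have := h2 w.2 x _ hp
    simpa [← pow_mul, h4, hp.ne_zero] using this

theorem freeRep_of_fun [Finite G] {f : G → ℂ} (h0 : f ≠ 0)
    (h : ∀ x g, (orderOf g).Prime → ∑ k ∈ range (orderOf g), f (x * g ^ k) = 0) : FreeRep G := by
  obtain ⟨n, ρ, hn, -, h1⟩ := exists_rep_of_fun h0 h
  exact ⟨n, (Matrix.toLinAlgEquiv' (R := ℂ) (n := Fin n)).toMulEquiv.toMonoidHom.comp
    ((Units.coeHom _).comp ρ), hn, h1⟩

theorem exists_sq_add_sq {n : ℕ} (hn : Odd n) : ∃ a b : ℕ, n ∣ a ^ 2 + b ^ 2 + 1 := by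
  obtain ⟨k, rfl⟩ := hn
  obtain ⟨p, -, hp, h⟩ := Nat.forall_exists_prime_gt_and_modEq 0 (q := 4 * (2 * k + 1))
    (a := 4 * k + 1) (by omega) (Nat.Coprime.mul_right (by simp) (by
      rw [← Nat.isCoprime_iff_coprime]
      exact ⟨-1, 2, by push_cast; ring⟩))
  haveI := Fact.mk hp
  obtain ⟨a, b, e⟩ := Nat.Prime.sq_add_sq (p := p) (by
    have := h.of_mul_right; unfold Nat.ModEq at this; omega)
  refine ⟨a, b, (Nat.modEq_zero_iff_dvd.mp ?_)⟩
  rw [e]
  exact ((h.of_mul_left 4).add_right 1).trans (Nat.modEq_zero_iff_dvd.mpr ⟨2, by ring⟩)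

theorem isSquare_of_quat {W : Type*} [AddCommGroup W] [Finite W] (hW : Odd (Nat.card W))
    {I J : Module.End ℤ W} (hI : I * I = -1) (hJ : J * J = -1) (hIJ : J * I = -(I * J)) :
    IsSquare (Nat.card W) := by
  obtain ⟨a, b, t, h⟩ := exists_sq_add_sq hW
  obtain ⟨m, hm⟩ := hW
  have h0 : ∀ w : W, Nat.card W • w = 0 := fun w => card_nsmul_eq_zero'
  set u := a • I + b • J with hu
  have u2 : u * u = 1 := by
    have : (a ^ 2 + b ^ 2 + 1) • (1 : Module.End ℤ W) = 0 := by
      ext w; simp only [LinearMap.smul_apply, h, mul_smul, h0, LinearMap.zero_apply]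
    rw [hu]
    simp only [mul_add, add_mul, smul_mul_smul_comm, hI, hJ, hIJ, add_smul, sq, one_smul] at this ⊢
    rw [mul_comm b a]
    linear_combination (norm := module) -this
  have uk : u * (I * J) = -(I * J * u) := by
    simp only [hu, mul_add, add_mul, smul_mul_assoc, mul_smul_comm]
    simp only [mul_assoc, hI, hJ, hIJ, massoc hI, massoc hJ, massoc hIJ, neg_mul, mul_neg, one_mul,
      mul_one]
    module
  have k2 : I * J * (I * J) = -1 := by noncomm_ring [hI, hJ, hIJ, massoc hI, massoc hJ, massoc hIJ]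
  have h1 : LinearMap.range (u + 1) = (LinearMap.ker (u + 1)).map (I * J) := by
    ext w
    constructor
    · rintro ⟨w, rfl⟩
      refine ⟨-(I * J) ((u + 1) w), ?_, ?_⟩
      · show ((u + 1) * -(I * J) * (u + 1)) w = 0
        have : (u + 1) * -(I * J) * (u + 1) = 0 := by
          generalize I * J = k at *
          noncomm_ring [massoc uk, uk, u2]
        rw [this]; rfl
      · rw [map_neg, ← Module.End.mul_apply, k2]; simp
    · rintro ⟨w, hw, rfl⟩
      refine ⟨(m + 1) • (I * J) w, ?_⟩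
      have h2 : u w = -w := eq_neg_of_add_eq_zero_left hw
      have h3 : u ((I * J) w) = (I * J) w := by
        rw [← Module.End.mul_apply, uk]; simp [h2]
      have h4 := h0 ((I * J) w)
      rw [hm] at h4
      rw [map_nsmul, LinearMap.add_apply, h3, Module.End.one_apply]
      linear_combination (norm := module) h4
  have hk : Function.Injective (I * J) := fun x y e => by
    have := congrArg (I * J) e
    rwa [← Module.End.mul_apply, ← Module.End.mul_apply, k2, LinearMap.neg_apply,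
      LinearMap.neg_apply, neg_inj] at this
  refine ⟨Nat.card (LinearMap.ker (u + 1)), ?_⟩
  rw [Submodule.card_eq_card_quotient_mul_card (LinearMap.ker (u + 1)),
    Nat.card_congr (u + 1).quotKerEquivRange.toEquiv, h1,
    ← Nat.card_congr (Submodule.equivMapOfInjective _ hk _).toEquiv]

theorem Semireg.isSquare {V : Type*} [Group V] [Finite V] {φ : G →* MulAut V} (h : Semireg φ)
    {i j : G} (h1 : i * i ≠ 1) (h2 : i * i * (i * i) = 1) (h3 : j * j = i * i)
    (h4 : j * i = i * i * (i * j)) : Odd (Nat.card V) ∧ IsSquare (Nat.card V) := by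
  have hf : MonoidHom.FixedPointFree (φ (i * i)) := h _ h1
  have hi : Function.Involutive (φ (i * i)) := fun v => by
    rw [← MulAut.mul_apply, ← map_mul, h2, map_one, MulAut.one_apply]
  have h5 := hf.coe_eq_inv_of_involutive hi
  have h6 := hf.odd_card_of_involutive hi
  letI := hf.commGroupOfInvolutive hi
  let ψ : G → Module.End ℤ (Additive V) := fun g =>
    (MonoidHom.toAdditive (φ g).toMonoidHom).toIntLinearMap
  have hψ : ∀ a b, ψ a * ψ b = ψ (a * b) := fun a b => by ext; simp [ψ]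
  have hz : ψ (i * i) = -1 := by ext; simp [ψ, -map_mul, h5]
  exact ⟨h6, isSquare_of_quat (W := Additive V) h6 (I := ψ i) (J := ψ j) (by rw [hψ, hz])
    (by rw [hψ, h3, hz]) (by rw [hψ, hψ, h4, ← hψ, hz, neg_one_mul])⟩

end Cfsg.Agent.H1
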